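import Cfsg.Agent.B85D.Z2
import Cfsg.Agent.B85C.H

/-! # The case where the odd part of the torus is centralized by the rotation -/

set_option autoImplicit false
set_option linter.unusedSectionVars false

namespace Cfsg.Agent.B85D

open Cfsg Cfsg.Agent.GT Cfsg.Agent.Char Cfsg.Agent.B84C Cfsg.Agent.B85C Subgroup
open scoped Classical

variable {H C K X G : Type*} [Group H] [CommGroup C] [CommGroup K] [CommGroup X] [Group G] [Fintype H] [Fintype C]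
  [Fintype K] [Fintype X] [Fintype G] {m : Mo H C K X} {φ : H →* G} {g : G}

theorem sq_half (q4 : m.q % 4 = 1) (a : C) : (a ^ 2) ^ ((m.q + 1) / 2) = 1 := by
  rw [← pow_mul, show 2 * ((m.q + 1) / 2) = m.q + 1 by omega, m.powC]

theorem sc_sq (q4 : m.q % 4 = 1) (hD : D1 m φ g)
    (hc : ∀ a b, Odd (orderOf (φ (m.dg (a, b)))) → Commute g (φ (m.dg (a, b)))) (z : C) :
    φ (m.dg (z ^ 2, z ^ 2)) = 1 :=
  hD _ (hc _ _ ((Nat.odd_iff.2 (show (m.q + 1) / 2 % 2 = 1 by omega)).of_dvd_nat (orderOf_dvd_of_pow_eq_one (by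
    rw [← map_pow, ← map_pow, Prod.pow_mk, sq_half q4, dg_one, map_one]))))

/-- the torus of the special unitary group -/
def ψ1 (m : Mo H C K X) (φ : H →* G) : C →* G := φ.comp (m.dg.comp ((MonoidHom.id _).prod invMonoidHom))

theorem ψ1_apply (a : C) : ψ1 m φ a = φ (m.dg (a, a⁻¹)) := rfl

theorem exists_hs (h : Hy m φ g) (q4 : m.q % 4 = 1) (hD : D1 m φ g)
    (hc : ∀ a b, Odd (orderOf (φ (m.dg (a, b)))) → Commute g (φ (m.dg (a, b)))) :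
    Nat.card φ.ker = (m.q + 1) / 2 ∧ ∃ v, orderOf v = (m.q + 1) / 2 ∧ (∃ p, v = φ (m.dg p)) ∧
      B84H.HS (φ (m.dg (m.e, m.e))) (φ (m.dg (1, m.e))) g (φ m.ww) v := by
  have := m.cycK
  have := isCyclic_of_injective _ m.jj_inj
  obtain ⟨γ, hγ⟩ := IsCyclic.exists_generator (α := C)
  have inj : Function.Injective (ψ1 m φ) := (injective_iff_map_eq_one _).2 fun a e =>
    (Prod.ext_iff.1 (m.dg_inj ((h.ker_det (A := m.dg (a, a⁻¹)) e (by rw [m.det_dg, mul_inv_cancel])).trans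
      (dg_one m).symm))).1
  have o2 : orderOf (γ ^ 2) = (m.q + 1) / 2 := by
    have := orderOf_eq_card_of_forall_mem_zpowers hγ
    rw [m.cC] at this
    rw [orderOf_pow_of_dvd two_ne_zero (by omega), this]
  have sq : ∀ a : C, a ^ 2 ∈ zpowers (γ ^ 2) := fun a => by
    obtain ⟨k, rfl⟩ := hγ a
    exact ⟨k, by rw [← zpow_natCast, ← zpow_natCast, zpow_comm]⟩
  have o := (orderOf_injective _ inj _).trans o2
  have oo : Odd (orderOf (ψ1 m φ (γ ^ 2))) := o ▸ Nat.odd_iff.2 (by omega)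
  have Q := h.q3
  refine ⟨?_, _, o, ⟨_, rfl⟩, Q, oo, T_comm, (hc _ _ oo).symm, ?_, ?_⟩
  · rw [← o2, ← orderOf_injective (m.kk.comp m.jj) (m.kk_inj.comp m.jj_inj), ← Nat.card_zpowers,
      ← MonoidHom.map_zpowers]
    refine congrArg (fun Y : Subgroup H => Nat.card Y) (le_antisymm (fun A e => ?_) ?_)
    · obtain ⟨c, oc, rfl⟩ := h.ker A e
      obtain ⟨n, e⟩ := B84.odd_sqrt oc
      exact ⟨c, e ▸ pow_two (c ^ n) ▸ sq _, m.kj c⟩
    · rw [MonoidHom.map_zpowers, zpowers_le, MonoidHom.comp_apply, m.kj]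
      exact sc_sq q4 hD hc γ
  · rw [ψ1_apply, Hy.w_dg, ← map_inv, ← map_inv, Prod.inv_mk, inv_inv]
  rw [← MonoidHom.map_zpowers]
  rintro _ ⟨b, -, rfl⟩ - x c ⟨b', -, e⟩
  obtain ⟨A, rfl⟩ := h.cent.1 c
  refine (em (b' = b⁻¹)).symm.imp (fun n => ?_) fun n => by rw [← e, n, map_inv]
  have k := (h.conj_iff (B := m.dg (b, b⁻¹)) (D := m.dg (b', b'⁻¹))
    (by rw [m.det_dg, m.det_dg, mul_inv_cancel, mul_inv_cancel])).1 e.symm
  obtain rfl : b' = b := (Prod.ext_iff.1 ((m.conj_dg (x := A⁻¹) (by rw [inv_inv]; exact k.symm)).resolve_right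
    fun e => n (Prod.ext_iff.1 e).1)).1
  obtain ⟨⟨a1, a2⟩, rfl⟩ := m.cent_dg _ _ A n (mul_inv_eq_iff_eq_mul.1 k)
  have mU : φ (m.dg (a1, a2)) ^ ((m.q + 1) / 2) ∈ Q.ψ.range := by
    have p : ∀ a : C, a ^ ((m.q + 1) / 2) = 1 ∨ a ^ ((m.q + 1) / 2) = m.e := fun a =>
      m.sqC (by rw [← mul_pow, ← pow_two, sq_half q4])
    rw [← map_pow, ← map_pow, Prod.pow_mk, Q.mem_U, h.t3]
    rcases p a1 with e | e <;> rcases p a2 with e' | e' <;> simp [e, e', Prod.mk_one_one]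
  have m4 : φ (m.dg (a1, a2)) ^ 4 ∈ (zpowers (γ ^ 2)).map (ψ1 m φ) := by
    refine ⟨(a1 * a2⁻¹) ^ 2, sq _, ?_⟩
    rw [← one_mul (ψ1 m φ _), ← sc_sq q4 hD hc (a1 * a2), ψ1_apply, ← map_pow, ← map_pow, ← map_mul, dg_mul,
      Prod.pow_mk, ← mul_pow, ← inv_pow, ← mul_pow, show 4 = 2 * 2 from rfl, pow_mul, pow_mul]
    congr 4 <;> simp [pow_two, mul_comm, mul_left_comm]
  obtain ⟨k, hk⟩ : ∃ k, (m.q + 1) / 2 = 2 * k + 1 := Nat.odd_iff.2 (by omega)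
  refine ⟨_, pow_mem mU (2 * k + 1), _, inv_mem (pow_mem m4 (k * k + k)), ?_⟩
  rw [hk, ← pow_mul, ← pow_mul, show (2 * k + 1) * (2 * k + 1) = 1 + 4 * (k * k + k) by ring, pow_add, pow_one,
    mul_inv_cancel_right]

theorem hard' (h : Hy m φ g) (q4 : m.q % 4 = 1) (hD : D1 m φ g)
    (hc : ∀ a b, Odd (orderOf (φ (m.dg (a, b)))) → Commute g (φ (m.dg (a, b))))
    (H1 : ∀ k, 2 ^ k ∣ m.q - 1 → (4 * 2 ^ k : ℤ) ∣ C1[φ (m.dg (m.e, m.e))].index - 1 + m.q * (m.q - 1))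
    {η η' : G → ℂ} {x : ℤ} (s1 : IsSIrr G η) (s2 : IsSIrr G η') (v1 : η 1 = x) (v2 : η (φ (m.dg (m.e, m.e))) = m.q)
    (v3 : η' 1 = -(x + 1)) (v4 : η' (φ (m.dg (m.e, m.e))) = -(m.q + 1))
    (E : (C1[φ (m.dg (m.e, m.e))].index : ℤ) * (x - m.q) ^ 2 = m.q * (m.q + 1) * (m.q - 1) ^ 2 * (x * (x + 1)))
    (z : ∀ y, 1 + (η y + η' y) ≠ 0 → ∃ z, IsConj (φ (m.dg (z, z))) (y ^ (m.q - 1)))
    {p : ℕ} (hp : p.Prime) (k : ℕ) (hq : m.q = p ^ k) : p ∣ C1[φ (m.dg (m.e, m.e))].index := by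
  obtain ⟨ck, v, ov, ⟨d, hd⟩, S⟩ := exists_hs h q4 hD hc
  obtain ⟨r, hr⟩ : ∃ r, m.q = 4 * r + 1 := ⟨m.q / 4, by omega⟩
  by_contra n
  refine z2 S (fun s => h.conj_t) q4 (by omega) ?_ (fun y c1 c2 => ?_) H1 s2 s1 v1 v2 v3 v4 E (fun y ny => ?_)
    (hq ▸ (hp.coprime_iff_not_dvd.2 n).pow_left k)
  · have := h.card_H
    rw [ck, m.card_H, m.cK] at this
    rw [hr] at this ⊢
    rw [show (4 * r + 1 + 1) / 2 = 2 * r + 1 by omega, Nat.add_sub_cancel] at this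
    rw [show (4 * r + 1) ^ 2 = 16 * r ^ 2 + 8 * r + 1 by ring, Nat.add_sub_cancel]
    exact Nat.eq_of_mul_eq_mul_right (show 0 < 2 * r + 1 by omega) (this.trans (by ring))
  · obtain ⟨a, b, rfl⟩ := h.cent_U.1 ⟨c1, c2⟩
    exact hd ▸ T_comm
  · obtain ⟨a, e⟩ := z y (by rwa [add_comm (η y)])
    replace e := e.pow 2
    rw [← map_pow, ← map_pow, Prod.pow_mk, sc_sq q4 hD hc, isConj_one_right, ← pow_mul, hr, Nat.add_sub_cancel] at e
    rw [ov, hr, show (4 * r + 1 + 1) / 2 = 2 * r + 1 by omega]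
    refine Nat.Coprime.coprime_dvd_left (orderOf_dvd_of_pow_eq_one e) ?_
    rw [show 4 * r * 2 = 2 * r * 2 ^ 2 by ring]
    exact Nat.Coprime.mul_left (by simp) (Nat.Coprime.pow_left _ (by simp))

end Cfsg.Agent.B85D
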