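import Cfsg.Agent.B84H.C
import Cfsg.Agent.B84.LocC
import Cfsg.Agent.PG.Critical

/-! # The two exceptional fields -/

set_option autoImplicit false
set_option linter.unusedSectionVars false

namespace Cfsg.Agent.B85D

open Cfsg Cfsg.Agent.GT Cfsg.Agent.BS Cfsg.Agent.B84 Cfsg.Agent.B84H Subgroup
open scoped Classical

variable {G : Type*} [Group G] [Fintype G] {t u g w v : G} {P M : Subgroup G} {p : ℕ}

theorem syl_p (hp : p.Prime) (hP : Nat.card P = p) (le : P ≤ M) (h : ¬ p * p ∣ Nat.card M) : IsPiHallOf {p} P M :=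
  syl_mk hp le (isPGroup_of_card_eq_prime hP) fun d => h (by
    rw [← card_mul_relIndex le, hP]; exact Nat.mul_dvd_mul_left _ d)

theorem core_dvd (H : Subgroup G) : H.normalCore.index ∣ H.index.factorial := by
  have := card_subgroup_dvd_card (MulAction.toPermHom G (G ⧸ H)).range
  rwa [← index_ker, ← normalCore_eq_ker, Nat.card_perm, ← index_eq_card] at this

theorem dvd_of_inv (cj : ∀ s : G, s * s = 1 → s ≠ 1 → IsConj t s) {s : G} (ss : s * s = 1) (s1 : s ≠ 1)
    (le : P ≤ C1[s]) : Nat.card P ∣ Nat.card C1[t] := by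
  obtain ⟨c, rfl⟩ := isConj_iff.1 (cj s ss s1)
  rw [← card_conj c C1[t], conj_cent1]
  exact card_dvd_of_le le

theorem ar5 {c r n : ℕ} (o : ¬ 2 ∣ 23 * c) (d : r ∣ 22) (e : 23 * c * r * n = 149040) (h : n % 23 = 1) :
    23 * c = 3105 := by
  have k : c * r * n = 6480 := by linarith
  have l := Nat.le_of_dvd (by norm_num) d
  rcases (show ∀ n ∈ Nat.divisors 6480, n % 23 = 1 → n = 1 ∨ n = 24 ∨ n = 162 by decide +kernel) n
    (Nat.mem_divisors.2 ⟨Dvd.intro_left _ k, by norm_num⟩) h with rfl | rfl | rfl <;> interval_cases r <;> omega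

theorem q5 (h : Q3 t u g) (cj : ∀ s : G, s * s = 1 → s ≠ 1 → IsConj t s) (cG : Nat.card G = 149040)
    (cH : Nat.card C1[t] = 240) (cU : ∀ x, Commute x t → Commute x u → x ^ 6 = 1) : False := by
  have p23 : Nat.Prime 23 := by norm_num
  obtain ⟨R, -, cR⟩ := exists_le_card_eq_prime (H := (⊤ : Subgroup G)) p23 (by rw [card_top, cG]; norm_num)
  have n1 := syl_idx_mod p23 (syl_p p23 cR le_top (by rw [card_top, cG]; norm_num))
  have RC : R ≤ C[R] := isMulCommutative_iff_le_cent.1 (isMulCommutative_of_isCyclic (isCyclic_of_card_prime (cR ▸ p23)))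
  have o : ¬ 2 ∣ Nat.card C[R] := fun d => by
    obtain ⟨s, hs, o⟩ := exists_mem_orderOf_eq Nat.prime_two d
    have := dvd_of_inv cj (mul_self_of_orderOf o) (ne_one_of_orderOf_two o) (mem_cent_iff_le_cent1.1 hs)
    rw [cR, cH] at this
    omega
  have d1 := PG.relIndex_cent_dvd_of_card_prime p23 cR (le_refl N[R])
  have e1 := N[R].card_mul_index
  obtain ⟨c, hc⟩ := cR ▸ card_dvd_of_le RC
  rw [← card_mul_relIndex (cent_le_norm R), cG, hc] at e1
  rw [relIndex_top_right] at n1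
  have cC : Nat.card C[R] = 3105 := hc.trans (ar5 (hc ▸ o) d1 e1 n1)
  obtain ⟨X, XC, cX⟩ := exists_le_card_eq_prime (H := C[R]) Nat.prime_five (by rw [cC]; norm_num)
  have sX := syl_p Nat.prime_five cX XC (by rw [cC]; norm_num)
  have CN : C[R] ≤ N[X] := by
    have a := syl_idx_mod Nat.prime_five sX
    have b := card_inf_mul_relIndex N[X] C[R]
    have d : 23 * 5 ∣ Nat.card ↥(N[X] ⊓ C[R]) := Nat.Coprime.mul_dvd_of_dvd_of_dvd (by norm_num)
      (cR ▸ card_dvd_of_le (le_inf ((le_cent_symm XC).trans (cent_le_norm X)) RC))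
      (cX ▸ card_dvd_of_le (le_inf le_normalizer XC))
    obtain ⟨k, d⟩ := d
    rw [d, cC] at b
    exact relIndex_eq_one.1 ((show ∀ n ∈ Nat.divisors 27, n % 5 = 1 → n = 1 by decide) _
      (Nat.mem_divisors.2 ⟨Dvd.intro_left k (by linarith), by norm_num⟩) a)
  have n5 : ¬ 23 ∣ (N[X]).normalCore.index := fun d => by
    have a := syl_idx_mod Nat.prime_five (syl_p Nat.prime_five cX le_top (by rw [card_top, cG]; norm_num))
    have b := N[X].card_mul_index
    obtain ⟨k, e⟩ := cC ▸ card_dvd_of_le CN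
    rw [relIndex_top_right] at a
    rw [e, cG] at b
    exact (show ∀ n ∈ Nat.divisors 48, n % 5 = 1 → ¬ 23 ≤ n by decide) _
      (Nat.mem_divisors.2 ⟨Dvd.intro_left k (by linarith), by norm_num⟩) a
      ((p23.dvd_factorial).1 (d.trans (core_dvd _)))
  have RK : R ≤ (N[X]).normalCore := PG.le_of_normal_of_not_dvd_relIndex p23 le_top (isPGroup_of_card_eq_prime cR)
    le_norm_of_normal (by rwa [relIndex_top_right])
  have nX : ∀ x, x ∈ N[X] := fun x => by
    have c : Nat.card ↥(cj[x] X) = 5 := by rw [card_conj, cX]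
    have a : R ≤ N[cj[x] X] := fun r hr => by
      rw [← conj_normalizer]
      exact mem_conj.2 (by simpa using RK hr x⁻¹)
    have b := le_cent_symm (PG.le_cent_of_coprime_relIndex (PG.relIndex_cent_dvd_of_card_prime Nat.prime_five c a)
      (by rw [cR]; norm_num))
    exact mem_normalizer_of_conj_le (le_syl_of_le_norm Nat.prime_five sX (isPGroup_of_card_eq_prime c) b (b.trans CN))
  have c1 : t * u ∈ C[X] := by
    have := PG.commutator_le_cent_of_isCyclic (A := ⊤) (B := ⊤) (isCyclic_of_card_prime (cX ▸ Nat.prime_five))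
      (fun x _ => nX x) (fun x _ => nX x) (commutator_mem_commutator (mem_top g) (mem_top t))
    rwa [commutatorElement_def, h.g1, inv_eq_of_mul_eq_one_right h.tt, ← h.tu.eq] at this
  have c2 := conj_mem_of_mem_norm (norm_le_norm_cent X (nX g)) c1
  rw [h.g3] at c2
  obtain ⟨y, hy, oy⟩ := exists_mem_orderOf_eq (H := X) Nat.prime_five cX.symm.dvd
  have := orderOf_dvd_of_pow_eq_one (cU y (c2 y hy) ((mul_mem_cancel_left c2).1 c1 y hy))
  rw [oy] at this
  omega

theorem odd_le (h : HS t u g w v) (v1 : v ≠ 1) (le : P ≤ C1[v]) (o : Odd (Nat.card P)) (n : C1[v] ≤ N[P]) :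
    P ≤ zpowers v := fun y hy => by
  have Q := h.q4 (mem_zpowers v) v1
  obtain ⟨c, -, a, ha, i, hi, e1, e2, -, e3, -, n⟩ := B84.four o h.tt h.uu h.tu (n (h.tM (mem_zpowers v)))
    (n (h.uM (mem_zpowers v))) hy
  have e2' : Commute a t := congrArg Subtype.val (show Commute (⟨a, le ha⟩ : C1[v]) _ from Q.c_u (Subtype.ext e2))
  have e3' : Commute i t := congrArg Subtype.val (show Commute (⟨i, le hi⟩ : C1[v]) _ from Q.c_v (Subtype.ext e3))
  obtain ⟨e, he, b, hb, n⟩ := h.cT (x := y) (mem_zpowers v) v1 (n ▸ (e1.mul_left e2').mul_left e3')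
    (mem_cent1.1 (le hy))
  refine PG.mem_of_sq_mem_of_odd (B84.odd_of_mem o hy) ?_
  rw [n, mul_assoc, ← mul_assoc b, (h.vU hb he).eq, ← mul_assoc, ← mul_assoc, h.sqU he, one_mul]
  exact mul_mem hb hb

theorem claimA (h : HS t u g w v) (cj : ∀ s : G, s * s = 1 → s ≠ 1 → IsConj t s) (ov : orderOf v = 15)
    (cM : Nat.card C1[v] = 900) (h9 : ¬ 3 * 3 ∣ Nat.card C1[t]) {a s : G} (ha : a ∈ C1[v]) (oa : orderOf a = 3)
    (ss : s * s = 1) (s1 : s ≠ 1) (c : Commute a s) : 5 * 5 ∣ Nat.card ↥(C1[v] ⊓ C1[a]) := by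
  by_contra n25
  have o5 : orderOf (v ^ 5) = 3 := by rw [orderOf_pow_of_dvd (by norm_num) (by rw [ov]; norm_num), ov]
  have o3 : orderOf (v ^ 3) = 5 := by rw [orderOf_pow_of_dvd (by norm_num) (by rw [ov]; norm_num), ov]
  obtain ⟨x, rfl⟩ := isConj_iff.1 (cj s ss s1)
  obtain ⟨y, -, e⟩ := syl_exists_conj_le Nat.prime_three (syl_p (P := zpowers (v ^ 5)) Nat.prime_three
    (by rw [Nat.card_zpowers, o5]) (zpowers_le.2 (mem_cent1.2 (h.vt.pow_left 5))) h9) (Q := zpowers (x⁻¹ * a * x⁻¹⁻¹))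
    (isPGroup_of_card_eq_prime (by rw [Nat.card_zpowers, orderOf_conj', oa])) (zpowers_le.2 (mem_cent1.2
      ((TT.commute_conj_iff x).1 (by simpa [mul_assoc] using c))))
  have m : y * x⁻¹ * a * (y * x⁻¹)⁻¹ ∈ zpowers v := zpowers_le.2 (npow_mem_zpowers v 5)
    (by simpa [mul_assoc] using conj_le_iff_forall.1 e _ (mem_zpowers _))
  generalize y * x⁻¹ = z at m
  have c1 := h.cen m (by rw [Ne, conj_eq_one_iff]; rintro rfl; simp at oa)
  have c3 := h.cen (npow_mem_zpowers v 3) (by intro e; simp [e] at o3)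
  have F : C1[z⁻¹ * v ^ 3 * z⁻¹⁻¹] = C1[a] := by
    rw [← conj_cent1, c3, ← c1, conj_cent1]; congr 2; group
  have oe : orderOf (z⁻¹ * v ^ 3 * z⁻¹⁻¹) = 5 := by rw [orderOf_conj', o3]
  generalize z⁻¹ * v ^ 3 * z⁻¹⁻¹ = e at F oe
  have e1 : e ∈ C1[v] := mem_cent1_comm.1 (F ▸ mem_cent1_comm.1 ha)
  have l : zpowers e ≤ zpowers (v ^ 3) := le_syl_of_le_norm Nat.prime_five (syl_p Nat.prime_five
    (by rw [Nat.card_zpowers, o3]) (zpowers_le.2 (pow_mem (mem_inf.2 ⟨self_mem_cent1 v, mem_cent1_comm.1 ha⟩) 3)) n25)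
    (isPGroup_of_card_eq_prime (by rw [Nat.card_zpowers, oe])) (zpowers_le.2 (mem_inf.2 ⟨e1, F ▸ self_mem_cent1 e⟩))
    (zpowers_le.2 (cent_le_norm _ (mem_cent_iff_le_cent1.2 (zpowers_le.2 (pow_mem (mem_cent1_comm.1 e1) 3)))))
  rw [← F, h.cen (zpowers_le.2 (npow_mem_zpowers v 3) (l (mem_zpowers e))) (by rintro rfl; simp at oe), inf_idem,
    cM] at n25
  omega

theorem q29 (h : HS t u g w v) (cj : ∀ s : G, s * s = 1 → s ≠ 1 → IsConj t s) (ov : orderOf v = 15)
    (cM : Nat.card C1[v] = 900) (h9 : ¬ 3 * 3 ∣ Nat.card C1[t]) : False := by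
  have := Fact.mk Nat.prime_three
  have v1 : v ≠ 1 := by rintro rfl; simp at ov
  have o5 : orderOf (v ^ 5) = 3 := by rw [orderOf_pow_of_dvd (by norm_num) (by rw [ov]; norm_num), ov]
  obtain ⟨R, sR⟩ := exists_syl Nat.prime_three C1[v]
  have pR := syl_isPGroup Nat.prime_three sR
  have cR : Nat.card R = 9 := by
    have a := sR.dvd_card (piNat_single_pow Nat.prime_three 2) (by rw [cM]; norm_num)
    have b := cM ▸ card_dvd_of_le sR.le
    obtain ⟨k, e⟩ := PG.exists_card_eq_pow pR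
    rw [e] at a b ⊢
    have := (Nat.pow_dvd_pow_iff_le_right (by norm_num)).1 a
    obtain rfl : k = 2 := le_antisymm (by_contra fun l => by
      have := (pow_dvd_pow 3 (show 3 ≤ k by omega)).trans b; omega) this
    rfl
  have oR : Odd (Nat.card R) := by rw [cR]; decide
  have VM := zpowers_le.2 (self_mem_cent1 v)
  have VC : zpowers v ≤ C[R] := zpowers_le.2 (mem_cent_iff_le_cent1.2 sR.le)
  have VN := VC.trans (cent_le_norm R)
  have n3 := syl_idx_mod Nat.prime_three sR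
  have cB := card_inf_mul_relIndex N[R] C1[v]
  obtain ⟨k, hk⟩ : 45 ∣ Nat.card ↥(N[R] ⊓ C1[v]) := (Nat.lcm_dvd (cR ▸ card_dvd_of_le (le_inf le_normalizer sR.le))
    (ov ▸ Nat.card_zpowers v ▸ card_dvd_of_le (le_inf VN VM)) : Nat.lcm 9 15 ∣ _)
  rw [cM] at cB
  rcases (show ∀ n ∈ Nat.divisors 20, n % 3 = 1 → n = 1 ∨ n = 4 ∨ n = 10 by decide) _
    (Nat.mem_divisors.2 ⟨Dvd.intro_left k (by rw [hk] at cB; linarith), by norm_num⟩) n3 with i | i | i
  · have := card_dvd_of_le (odd_le h v1 sR.le oR (relIndex_eq_one.1 i))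
    rw [cR, Nat.card_zpowers, ov] at this
    omega
  · set K := (N[R].subgroupOf C1[v]).normalCore
    have d := core_dvd (N[R].subgroupOf C1[v])
    have a := card_dvd_of_le (normalCore_le (N[R].subgroupOf C1[v]))
    have b := K.card_mul_index
    rw [card_subgroupOf'] at a
    rw [← relIndex, i] at d
    have c := card_dvd_of_le (odd_le h v1 (map_subtype_le K) (by
      rw [card_map_of_injective (subtype_injective _)]
      exact Odd.of_dvd_nat (by rw [show Nat.card ↥(N[R] ⊓ C1[v]) = 225 by rw [i] at cB; omega]; decide) a)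
      (le_norm_map_subtype_iff.2 inferInstance))
    rw [card_map_of_injective (subtype_injective _), Nat.card_zpowers, ov] at c
    have := Nat.mul_le_mul (Nat.le_of_dvd (by norm_num) c) (Nat.le_of_dvd (by norm_num) d)
    rw [b, cM] at this
    norm_num [Nat.factorial] at this
  replace cB : Nat.card ↥(N[R] ⊓ C1[v]) = 90 := by rw [i] at cB; omega
  obtain ⟨s, hs, os⟩ := exists_mem_orderOf_eq (H := N[R] ⊓ C1[v]) Nat.prime_two (by rw [cB]; norm_num)
  have ss := mul_self_of_orderOf os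
  obtain ⟨r, hr, nr⟩ : ∃ r ∈ R, r ∉ C1[s] := SetLike.not_le_iff_exists.1 fun l => h9 (by
    have := dvd_of_inv cj ss (ne_one_of_orderOf_two os) l
    rwa [cR] at this)
  obtain ⟨a, aR, a1, sa⟩ : ∃ a ∈ R, a ≠ 1 ∧ s * a * s⁻¹ = a⁻¹ :=
    ⟨r⁻¹ * (s * r * s⁻¹), mul_mem (inv_mem hr) (conj_mem_of_mem_norm hs.1 hr), fun e => nr (mem_cent1.2 (by
      rw [inv_mul_eq_one, eq_mul_inv_iff_mul_eq] at e; exact e)), by
      simp only [mul_inv_rev, inv_inv, TT.inv_of_sq ss, mul_assoc, TT.sq_cancel ss, ss, mul_one]⟩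
  have bR : zpowers (v ^ 5) ≤ R := le_syl_of_le_norm Nat.prime_three sR
    (isPGroup_of_card_eq_prime (by rw [Nat.card_zpowers, o5])) (zpowers_le.2 (pow_mem (self_mem_cent1 v) 5))
    (zpowers_le.2 (VN (npow_mem_zpowers v 5)))
  have bV := zpowers_le.2 (npow_mem_zpowers v 5)
  have i1 : ∀ b ∈ zpowers (v ^ 5), s * b * s⁻¹ = b⁻¹ → b = 1 := fun b hb e => h.sq1 (bV hb) (by
    rw [TT.commute_iff_conj.1 (zc (mem_cent1.1 hs.2).symm (bV hb)).symm] at e; exact mul_eq_one_iff_eq_inv.2 e)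
  have aC : zpowers a ≤ C[zpowers (v ^ 5)] := (zpowers_le.2 aR).trans (le_cent_symm (bV.trans VC))
  have cs := card_sup_of_inf_eq_bot (.inl (aC.trans (cent_le_norm _))) (eq_bot_iff.2 fun b hb => i1 b hb.2 (zi sa hb.1))
  have le := sup_le (zpowers_le.2 aR) bR
  have oa : orderOf a = 3 := by
    have := card_dvd_of_le le
    rw [cs, cR, Nat.card_zpowers, Nat.card_zpowers, o5] at this
    exact ((Nat.dvd_prime Nat.prime_three).1 (Nat.dvd_of_mul_dvd_mul_right (by norm_num) (this : _ ∣ 3 * 3))).resolve_left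
      (mt orderOf_eq_one_iff.1 a1)
  have eR := eq_of_le_of_card_ge le (by rw [cs, cR, Nat.card_zpowers, Nat.card_zpowers, o5, oa])
  have wn : w ∈ N[C1[v]] := mem_normalizer_fintype fun x hx => mem_cent1.2 (by
    have := (TT.commute_conj_iff w).2 (mem_cent1.1 hx)
    rw [h.vw] at this
    exact (Commute.inv_right_iff.1 this).eq)
  obtain ⟨k1, hk1, n1, hn1, e1⟩ := frattini_arg_exists Nat.prime_three sR wn
  have n1M : n1 ∈ N[C1[v]] := (mul_mem_cancel_left (le_normalizer hk1)).1 (e1 ▸ wn)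
  obtain ⟨k2, hk2, y, hy, e2⟩ := frattini_arg_exists Nat.prime_two (syl_p (P := zpowers s) Nat.prime_two
    (by rw [Nat.card_zpowers, os]) (zpowers_le.2 hs) (by rw [cB]; norm_num))
    (zpowers_le.1 (le_norm_inf (zpowers_le.2 (le_normalizer hn1)) (zpowers_le.2 n1M)))
  have yR : y ∈ N[R] := (mul_mem_cancel_left (mem_inf.1 hk2).1).1 (e2 ▸ hn1)
  have ys : Commute s y := show s * y = y * s by
    simpa using PG.pow_sub_one_mem_cent_of_card_prime Nat.prime_two (by rw [Nat.card_zpowers, os]) hy s (mem_zpowers s)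
  have yv : y * v * y⁻¹ = v⁻¹ := by
    have := h.vw
    rw [e1, e2, ← mul_assoc, show k1 * k2 * y * v * (k1 * k2 * y)⁻¹ = k1 * k2 * (y * v * y⁻¹) * (k1 * k2)⁻¹ by group,
      mul_inv_eq_iff_eq_mul, ← (show Commute (k1 * k2) v from mem_cent1.1 (mul_mem hk1 hk2.2)).inv_right.eq] at this
    exact mul_left_cancel this
  have ya : y * a * y⁻¹ ∈ zpowers a := by
    obtain ⟨c, hc, b, hb, e⟩ := (mem_sup_of_le_norm (aC.trans (cent_le_norm _))).1 (eR ▸ conj_mem_of_mem_norm yR aR)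
    have k : s * (y * a * y⁻¹) * s⁻¹ = (y * a * y⁻¹)⁻¹ := by
      rw [conj_inv, ← sa, show s * (y * a * y⁻¹) * s⁻¹ = s * y * a * (s * y)⁻¹ by group, ys.eq]; group
    rw [e, ← conj_mul, zi sa hc, ← aC hc b hb, mul_inv_rev, mul_right_inj] at k
    rwa [e, i1 b hb k, mul_one]
  obtain ⟨z, za, zv⟩ : ∃ z, Commute a z ∧ z * v * z⁻¹ = v⁻¹ := by
    obtain ⟨j, lj, e⟩ := Finset.mem_image.1 (mem_zpowers_iff_mem_range_orderOf.1 ya)
    rw [oa, Finset.mem_range] at lj
    interval_cases j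
    · exact absurd (conj_eq_one_iff.1 (e.symm.trans (pow_zero a))) a1
    · exact ⟨y, (TT.commute_iff_conj.2 (e.symm.trans (pow_one a))).symm, yv⟩
    refine ⟨y * s, (TT.commute_iff_conj.2 ?_).symm, ?_⟩
    · rw [show y * s * a * (y * s)⁻¹ = y * (s * a * s⁻¹) * y⁻¹ by group, sa, ← conj_inv, ← e, inv_eq_iff_mul_eq_one,
        ← pow_succ]
      exact orderOf_dvd_iff_pow_eq_one.1 oa.dvd
    · rw [show y * s * v * (y * s)⁻¹ = y * (s * v * s⁻¹) * y⁻¹ by group, TT.commute_iff_conj.1 (mem_cent1.1 hs.2), yv]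
  obtain ⟨j, hj⟩ := exists_pow_invol (g := z) fun o => v1 (h.sq1 (mem_zpowers v) (by
    have : z ∈ C1[v] := PG.mem_of_sq_mem_of_odd o (mem_cent1.2 (TT.commute_iff_conj.2 (by
      rw [show z * z * v * (z * z)⁻¹ = z * (z * v * z⁻¹) * z⁻¹ by group, zv, ← conj_inv, zv, inv_inv])))
    rw [TT.commute_iff_conj.1 (mem_cent1.1 this)] at zv
    exact mul_eq_one_iff_eq_inv.2 zv))
  have := (claimA h cj ov cM h9 (sR.le aR) oa (mul_self_of_orderOf hj) (ne_one_of_orderOf_two hj)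
    (za.pow_right j)).trans (card_dvd_of_le (show _ ≤ N[R] ⊓ C1[v] from le_inf (le_trans ?_ (cent_le_norm R)) inf_le_left))
  · rw [cB] at this
    omega
  rw [← eR, cent_sup]
  exact le_inf (fun x hx => le_cent_symm (zpowers_le.2 (mem_cent_iff_le_cent1.2 inf_le_right)) hx)
    fun x hx => le_cent_symm (bV.trans (zpowers_le.2 (mem_cent_iff_le_cent1.2 inf_le_left))) hx

end Cfsg.Agent.B85D
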