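import Cfsg.Agent.B85C.D
import Cfsg.Agent.B84V.E

/-! # The characters of `G` coming from the principal series when `q ≡ 1 (mod 4)` -/

set_option autoImplicit false
set_option linter.unusedSectionVars false

namespace Cfsg.Agent.B85D

open Cfsg Cfsg.Agent.GT Cfsg.Agent.Char Cfsg.Agent.B85C Subgroup Function
open Cfsg.Agent.B84C (cI cZ cN ch ch_virt ch_irr ci_ch Ev cZ_add cZ_sub cZ_one cZ_sirr two_term inv_uniq exists_inv)
open scoped ComplexConjugate Classical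

theorem four_pos {G : Type*} [Group G] [Fintype G] {t u g : G} (h : B84H.Q3 t u g) {χ : G → ℂ}
    (hχ : IsCharacter G χ) {f a : ℤ} (hf : χ 1 = f) (ha : χ t = a) : 0 ≤ f + 3 * a := by
  obtain ⟨n, hn⟩ := LY.lin_nat h.ψ 1 hχ
  have e1 := hχ.isClassFunction.eq_of_isConj h.cu
  have e2 := hχ.isClassFunction.eq_of_isConj h.cv
  rw [Fintype.sum_prod_type] at hn
  simp only [← Multiplicative.ofAdd.sum_comp, Fin.sum_univ_two] at hn
  simp [B84H.Q3.ψ, LY.cyc, ← e1, ← e2, hf, ha] at hn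
  have : f + 3 * a = 4 * n := by exact_mod_cast (by linear_combination hn : (f + 3 * a : ℂ) = 4 * n)
  omega

variable {H C K X G : Type*} [Group H] [CommGroup C] [CommGroup K] [CommGroup X] [Group G] [Fintype H] [Fintype C]
  [Fintype K] [Fintype X] [Fintype G] {m : Mo H C K X} {φ : H →* G} {g : G} {μ ν : K →* ℂˣ}

theorem je2 (m : Mo H C K X) : m.jj m.e * m.jj m.e = 1 := by rw [← map_mul, m.ee, map_one]

theorem je1 (m : Mo H C K X) : m.jj m.e ≠ 1 := by simpa [map_eq_one_iff _ m.jj_inj] using m.e1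

theorem inv_K (m : Mo H C K X) {i : K} (e : i * i = 1) (n : i ≠ 1) : i = m.jj m.e := by
  have := m.cycK
  obtain ⟨γ, hγ⟩ := IsCyclic.exists_generator (α := K)
  exact inv_uniq e n (je2 m) (je1 m) (hγ _) (hγ _)

theorem je_mem (m : Mo H C K X) {c : K} (h : ¬Odd (orderOf c)) : m.jj m.e ∈ zpowers c := by
  obtain ⟨i, k, e, n⟩ := exists_inv h
  exact inv_K m e n ▸ k

theorem mul_ss (m : Mo H C K X) (c : K) : ∃ a, m.jj a = c ^ (m.q - 1) :=
  m.mem_jj (by rw [← pow_mul, mul_comm, ← m.cK, pow_card_eq_one'])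

theorem ci_I : ⟪m.II (ch μ), m.II (ch ν)⟫ = (if μ = ν then 1 else 0) + if μ = ν.comp m.ss then 1 else 0 := by
  rw [m.ci_II_II, ci_ch, ← ci_ch μ (ν.comp m.ss)]; rfl

theorem cZ_I (n : μ ≠ μ.comp m.ss) : cZ (m.dg (1, m.e)) (m.II (ch μ)) = 0 := by
  have s := (m.II_virt (ch_virt μ)).isSIrr_of_ci_self (by simp [ci_I, n])
  have := cZ_sirr (t := m.dg (1, m.e)) s
  rw [m.II_dg m.e1.symm] at this
  simpa [s.apply_one_ne_zero] using this

theorem gd_I (h : Hy m φ g) (h1 : Ev μ) (h2 : Ev ν) :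
    Gd φ (m.II (ch μ - ch ν)) ∧ ∀ y, m.II (ch μ - ch ν) y ≠ 0 → Ap m φ y := by
  refine ⟨⟨m.II_class, fun a b e => ?_⟩, fun y n => ?_⟩
  · obtain ⟨c, o, k⟩ := h.ker (a⁻¹ * b) (by rw [map_mul, map_inv, e, inv_mul_cancel])
    rw [← orderOf_injective m.jj m.jj_inj] at o
    rw [← m.II_mul c (fun x => by simp [ch, h1 _ o, h2 _ o]) a, ← k, mul_inv_cancel_left]
  · obtain ⟨x, k, e1, e2, -⟩ := m.II_supp n
    have := zpowers_le.2 e2 ((MonoidHom.map_zpowers _ _).le (mem_map_of_mem m.kk (je_mem m (c := k) fun o => by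
      have o' := o.of_dvd_nat (orderOf_map_dvd m.ss k)
      simp [ch, h1 _ o, h2 _ o, h1 _ o', h2 _ o'] at e1)))
    rw [m.kj] at this
    have := B84C.zp_conj x⁻¹ this
    rw [mul_assoc _ (m.dg _), m.cen, inv_mul_cancel_left] at this
    exact (MonoidHom.map_zpowers _ _).le (mem_map_of_mem φ (by simpa [mul_assoc] using this))

theorem exists_psi (h : Hy m φ g) (q4 : m.q % 4 = 1) : ∃ (η η' : G → ℂ) (x : ℤ), IsSIrr G η ∧ IsSIrr G η' ∧
    ⟪η, fun _ => 1⟫ = 0 ∧ ⟪η', fun _ => 1⟫ = 0 ∧ ⟪η, η'⟫ = 0 ∧ η 1 = x ∧ η (φ (m.dg (m.e, m.e))) = m.q ∧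
    η' 1 = -(x + 1) ∧ η' (φ (m.dg (m.e, m.e))) = -(m.q + 1) ∧
    (C1[φ (m.dg (m.e, m.e))].index : ℤ) * (x - m.q) ^ 2 = m.q * (m.q + 1) * (m.q - 1) ^ 2 * (x * (x + 1)) ∧
    (3 * m.q + 2 ≤ x ∨ x ≤ -3 * m.q - 4) ∧ ∀ y, 1 + (η y + η' y) ≠ 0 →
      ¬Odd (orderOf y) ∧ ∃ z, IsConj (φ (m.dg (z, z))) (y ^ (m.q - 1)) := by
  obtain ⟨μ, m1, m2⟩ := exists_ev (je2 m) (je1 m)
  have nn : (1 : ℂˣ) ≠ -1 := fun e => by have := congrArg Units.val e; norm_num at this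
  have m3 : μ ^ 4 ≠ 1 := fun e => by
    obtain ⟨r, hr⟩ : ∃ r, m.q = 4 * r + 1 := ⟨m.q / 4, by omega⟩
    have := m.cycK
    obtain ⟨k, hk⟩ := IsCyclic.exists_ofOrder_eq_natCard (α := K)
    have r0 : 0 < (2 * r + 1) * r := by have := m.q3; exact Nat.mul_pos (by omega) (by omega)
    rw [m.cK, hr, Nat.add_sub_cancel, show (4 * r + 1 + 1) * (4 * r) = (2 * r + 1) * r * 4 * 2 by ring] at hk
    have := DFunLike.congr_fun e (k ^ ((2 * r + 1) * r))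
    rw [MonoidHom.pow_apply, ← map_pow, ← pow_mul, inv_K m (i := k ^ _) (by
      rw [← sq, ← pow_mul, ← hk, pow_orderOf_eq_one]) (pow_ne_one_of_lt_orderOf (by omega) (by omega)), m2] at this
    exact nn this.symm
  have n1 : Ev (μ ^ 2) := fun c o => by simp [m1 c o]
  have n2 : ∀ a, (μ ^ 2) (m.jj a) = 1 := fun a => by
    rw [MonoidHom.pow_apply, ← map_pow, m1 _ ((Nat.odd_iff.2 (show (m.q + 1) / 2 % 2 = 1 by omega)).of_dvd_nat
      (orderOf_dvd_of_pow_eq_one (by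
        rw [← pow_mul, show 2 * ((m.q + 1) / 2) = m.q + 1 by omega, ← map_pow, m.powC, map_one])))]
  have n3 : μ ^ 2 ≠ (μ ^ 2).comp m.ss := fun e => m3 (MonoidHom.ext fun c => by
    obtain ⟨a, k⟩ := mul_ss m c
    have := n2 a⁻¹
    rwa [map_inv, k, show (c ^ (m.q - 1))⁻¹ = c * m.ss c by
      rw [m.ss_apply, show m.q = m.q - 1 + 1 by omega, pow_succ', mul_inv_rev, mul_comm _ c⁻¹, mul_inv_cancel_left]; simp,
      map_mul, show (μ ^ 2) (m.ss c) = (μ ^ 2) c from (DFunLike.congr_fun e c).symm, ← MonoidHom.mul_apply,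
      ← pow_add] at this)
  have n4 : μ ≠ μ.comp m.ss := fun e => n3 (MonoidHom.ext fun c => congrArg (· ^ 2) (DFunLike.congr_fun e c))
  have s1 := m.ss_jj m.e
  have n5 : μ ^ 2 ≠ μ := fun e => nn (by simpa [m2] using DFunLike.congr_fun e (m.jj m.e))
  have n6 : μ ^ 2 ≠ μ.comp m.ss := fun e => nn (by simpa [m2, s1] using DFunLike.congr_fun e (m.jj m.e))
  have n7 : μ ≠ (μ ^ 2).comp m.ss := fun e => nn (by simpa [m2, s1] using (DFunLike.congr_fun e (m.jj m.e)).symm)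
  have n8 : μ ^ 2 ≠ 1 := fun e => m3 (by rw [show 4 = 2 * 2 from rfl, pow_mul, e]; ext; simp)
  have n9 : 1 ≠ (μ ^ 2).comp m.ss := fun e => n8 (MonoidHom.ext fun c => by
    have := DFunLike.congr_fun e (m.ss c)
    rwa [MonoidHom.comp_apply, m.ss_ss, eq_comm] at this)
  have n10 : 1 ≠ μ := fun e => nn (by simpa [m2] using DFunLike.congr_fun e (m.jj m.e))
  have n11 : 1 ≠ μ.comp m.ss := fun e => nn (by simpa [m2, s1] using DFunLike.congr_fun e (m.jj m.e))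
  obtain ⟨g1, a1⟩ := gd_I (μ := 1) h (fun _ _ => rfl) n1
  obtain ⟨g2, a2⟩ := gd_I h m1 n1
  have v1 := m.II_virt ((ch_virt 1).sub (ch_virt (μ ^ 2)))
  have v2 := m.II_virt ((ch_virt μ).sub (ch_virt (μ ^ 2)))
  have c1 : (ch (1 : K →* ℂˣ)) = fun _ => 1 := rfl
  have p11 : ⟪m.II (ch 1 - ch (μ ^ 2)), m.II (ch 1 - ch (μ ^ 2))⟫ = 3 := by
    simp only [m.II_sub, ci_sub_left, ci_sub_right, ci_I, MonoidHom.one_comp, n3, n8, n8.symm, n9]; norm_num
  have p22 : ⟪m.II (ch μ - ch (μ ^ 2)), m.II (ch μ - ch (μ ^ 2))⟫ = 2 := by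
    simp only [m.II_sub, ci_sub_left, ci_sub_right, ci_I, n3, n4, n5, n5.symm, n6, n7]; norm_num
  have p12 : ⟪m.II (ch 1 - ch (μ ^ 2)), m.II (ch μ - ch (μ ^ 2))⟫ = 1 := by
    simp only [m.II_sub, ci_sub_left, ci_sub_right, ci_I, n3, n5, n6, n8.symm, n9, n10, n11]; norm_num
  have p1 : ⟪m.II (ch 1 - ch (μ ^ 2)), fun _ => 1⟫ = 1 := by
    rw [m.ci_II_one, ← c1, ci_sub_left, ci_ch, ci_ch]; simp [n8]
  have p2 : ⟪m.II (ch μ - ch (μ ^ 2)), fun _ => 1⟫ = 0 := by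
    rw [m.ci_II_one, ← c1, ci_sub_left, ci_ch, ci_ch]; simp [n8, n10.symm]
  have z2 : cZ (m.dg (1, m.e)) (m.II (ch μ - ch (μ ^ 2))) = 0 := by
    rw [m.II_sub, cZ_sub, cZ_I n4, cZ_I n3, sub_self]
  have z1 : cZ (m.dg (1, m.e)) (m.II (ch 1 - ch (μ ^ 2))) = m.q * (m.q + 1) * (m.q - 1) ^ 2 := by
    have := m.cZ_St
    rw [Mo.St, cZ_sub, cZ_one, m.index_u] at this
    rw [m.II_sub, cZ_sub, cZ_I n3, c1]
    linear_combination this
  have at1 : Ap m φ (m.dg (m.e, m.e)) := mem_zpowers _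
  have o1 : Odd (orderOf (1 : G)) := by simp
  have n0 : (C1[φ (m.dg (m.e, m.e))].index : ℂ) ≠ 0 := Nat.cast_ne_zero.2 index_ne_zero_of_finite
  obtain ⟨α, β, N, a, b, ha, hb, -, e, α1, β1, αt, βt, N0, k, -⟩ := two_term h.q3.tt (v2.ind φ)
    (by rw [phi0_ci h g2 a2 a2, p22]) (phi0_odd h a2 o1)
  have w := phi0_val h g2 a2 at1
  rw [e, Pi.sub_apply, αt, βt, m.II_sc] at w
  simp only [Pi.sub_apply, ch, MonoidHom.pow_apply, m2, Units.val_pow_eq_pow_val, Units.val_neg, Units.val_one] at w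
  rw [phi0_cZ h g2 a2, z2] at k
  have ab : (a : ℂ) + b = 0 := mul_left_cancel₀ (mul_ne_zero (pow_ne_zero 2 n0) (mul_ne_zero two_ne_zero
    m.q1_ne)) (by linear_combination k + (C1[φ (m.dg (m.e, m.e))].index : ℂ) ^ 2 * (a + b) * w)
  have av : (a : ℂ) = -(m.q + 1) := by linear_combination (w + ab) / 2
  have bv : (b : ℂ) = m.q + 1 := by linear_combination (ab - w) / 2
  have pos := four_pos h.q3 ha.isCharacter α1 αt
  rw [show a = -(m.q + 1) by exact_mod_cast av] at pos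
  obtain ⟨γ, δ, hc, hd, y1, y2, y3, y4, y5⟩ := B84V.link' (v1.ind φ) (by rw [phi0_ci h g1 a1 a1, p11])
    (by rw [phi0_one, p1]) ha hb (by rw [← e, phi0_ci h g2 a1 a2, p12]) (by rw [← e, phi0_one, p2])
  have w1 := phi0_odd h a1 o1
  have w2 := phi0_val h g1 a1 at1
  have w3 := phi0_cZ h g1 a1
  rw [m.II_sc] at w2
  simp only [Pi.sub_apply, ch, n2, MonoidHom.one_apply, sub_self, mul_zero] at w2
  rw [y4] at w1 w2 w3
  simp only [Pi.add_apply] at w1 w2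
  obtain ⟨x, x1, x2, x3⟩ : ∃ x : ℤ, γ 1 = -(x + 1) ∧ γ (φ (m.dg (m.e, m.e))) = -(m.q + 1) ∧
      (3 * m.q + 2 ≤ x ∨ x ≤ -3 * m.q - 4) := by
    rcases y5 with rfl | rfl
    · exact ⟨-N - 1, by simp [α1], αt.trans av, .inr (by omega)⟩
    · exact ⟨N - 1, by simp [β1], by simp only [Pi.neg_apply, βt, bv], .inl (by omega)⟩
  have d1 : δ 1 = x := by linear_combination w1 - x1
  have d2 : δ (φ (m.dg (m.e, m.e))) = m.q := by linear_combination w2 - x2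
  refine ⟨δ, γ, x, hd, hc, y2, y1, ci_eq_zero_symm y3, d1, d2, x1, x2, ?_, x3, fun y n => ⟨fun o => n ?_, ?_⟩⟩
  · have k1 := cZ_sirr (t := φ (m.dg (m.e, m.e))) hc
    have k2 := cZ_sirr (t := φ (m.dg (m.e, m.e))) hd
    rw [x1, x2] at k1
    rw [d1, d2] at k2
    rw [cZ_add, cZ_add, cZ_one, z1] at w3
    have : (C1[φ (m.dg (m.e, m.e))].index : ℂ) * (x - m.q) ^ 2 = m.q * (m.q + 1) * (m.q - 1) ^ 2 * (x * (x + 1)) :=
      mul_left_cancel₀ n0 (by linear_combination x * (x + 1) * w3 + x * k1 - (x + 1) * k2)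
    exact_mod_cast this
  · rw [add_comm (δ y)]; exact (congrFun y4 y).symm.trans (phi0_odd h a1 o)
  · obtain ⟨k, A, e, nA⟩ := B84V.ind_ne (f := φ) (θ := m.II (ch 1 - ch (μ ^ 2))) (y := y) (by
      rwa [y4, Pi.add_apply, Pi.add_apply, add_comm (γ y)])
    obtain ⟨l, c, e1, -, e2⟩ := m.II_supp nA
    replace e2 := e2 (by rintro ⟨a, rfl⟩; simp [ch, m.ss_jj, n2] at e1)
    obtain ⟨z, hz⟩ := mul_ss m c
    refine ⟨z, isConj_iff.2 ⟨k * φ l, ?_⟩⟩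
    rw [← m.kj, hz, map_pow, map_pow, ← conj_pow, e2, map_mul, map_mul, map_inv, e]
    simp [mul_assoc]

end Cfsg.Agent.B85D
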