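import Cfsg.Agent.B85D.A
import Cfsg.Agent.B85D.B

/-! # The case where the centre of the centralizer has order two: abstract form -/

set_option autoImplicit false
set_option linter.unusedSectionVars false

namespace Cfsg.Agent.B85D

open Cfsg Cfsg.Agent.GT Cfsg.Agent.Char Cfsg.Agent.B84C Cfsg.Agent.B84H Subgroup
open scoped Classical

theorem ar1 {P R j N : ℤ} (p : 0 < P) (h1 : R < P) (h2 : 5 * P ≤ 6 * R) (e : P * j ^ 2 = N * R)
    (j0 : 0 ≤ j) (hN : N = 12 ∨ N = 60) : False := by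
  have k1 : j ^ 2 < N := lt_of_mul_lt_mul_left (by rcases hN with rfl | rfl <;> nlinarith) p.le
  have k2 : 5 * N ≤ 6 * j ^ 2 := le_of_mul_le_mul_left (by rcases hN with rfl | rfl <;> nlinarith) p
  have k3 : j < 9 := by rcases hN with rfl | rfl <;> nlinarith
  rcases hN with rfl | rfl <;> interval_cases j <;> omega

theorem ar2 {q b j N : ℤ} (hq : 13 ≤ q) (hb : 7 * q - 1 ≤ b ∨ b ≤ 1 - 7 * q)
    (e : (b - 1) * (q + 1) * j ^ 2 = N * ((b + 1) * (q - 1))) (j0 : 0 ≤ j) (hN : N = 12 ∨ N = 60) : False := by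
  rcases hb with l | l
  · exact ar1 (mul_pos (by omega) (by omega)) (by nlinarith) (by nlinarith) e j0 hN
  · exact ar1 (P := (1 - b) * (q + 1)) (R := (-b - 1) * (q - 1)) (mul_pos (by omega) (by omega)) (by nlinarith)
      (by nlinarith) (by linear_combination -e) j0 hN

theorem exists_c {q n x : ℤ} (hq : 2 ≤ q) (e : n * (x - q) ^ 2 = q * (q + 1) * (q - 1) ^ 2 * (x * (x + 1))) :
    ∃ c, c * (x - q) = q * (q ^ 2 - 1) ∧ n = (q ^ 2 - 1 + c) * (q ^ 2 - q + c) := by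
  have d0 : x - q ≠ 0 := fun k => by
    obtain rfl : x = q := by omega
    have : 0 < x * (x + 1) * (x - 1) ^ 2 * (x * (x + 1)) := by
      have : 0 < x - 1 := by omega
      positivity
    rw [← e] at this; simp at this
  obtain ⟨c, hc⟩ : x - q ∣ 2 * (q * (q ^ 2 - 1)) + (2 * q ^ 2 - q - 1) * (x - q) :=
    (Int.pow_dvd_pow_iff two_ne_zero).1 ⟨(q - 1) ^ 2 + 4 * n, by linear_combination -4 * e⟩
  have k : c ^ 2 = (q - 1) ^ 2 + 4 * n := mul_left_cancel₀ (pow_ne_zero 2 d0) (by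
    rw [← mul_pow, ← hc]; linear_combination -4 * e)
  obtain ⟨b, hb⟩ : Even (c - (q - 1)) := by
    rw [Int.even_sub, ← Int.even_pow' (m := c) two_ne_zero, k, Int.even_add, Int.even_pow' two_ne_zero]
    simp [show Even (4 : ℤ) by decide]
  obtain rfl : c = 2 * b + (q - 1) := by omega
  refine ⟨b - (q ^ 2 - q), ?_, ?_⟩
  · exact mul_left_cancel₀ two_ne_zero (by linear_combination -hc)
  · exact mul_left_cancel₀ four_ne_zero (by linear_combination -k)

theorem ar3 {q n x : ℤ} (hq : 2 ≤ q) (h4 : q % 4 = 1) (cop : IsCoprime q n) (H : 16 ∣ n - 1 + q * (q - 1))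
    (e : n * (x - q) ^ 2 = q * (q + 1) * (q - 1) ^ 2 * (x * (x + 1))) :
    ∃ c d, c * (8 * d) = q ^ 2 - 1 ∧ x = q * (8 * d + 1) ∧ n = (q ^ 2 - 1 + c) * (q ^ 2 - q + c) := by
  obtain ⟨c, e1, rfl⟩ := exists_c hq e
  obtain ⟨r, rfl⟩ : ∃ r, q = 4 * r + 1 := ⟨q / 4, by omega⟩
  have o : Odd c := by
    have : Odd (((4 * r + 1) ^ 2 - 1 + c) * ((4 * r + 1) ^ 2 - (4 * r + 1) + c)) := by
      obtain ⟨k, hk⟩ := H
      exact ⟨8 * k - (4 * r + 1) * (2 * r), by linear_combination hk⟩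
    obtain ⟨k, hk⟩ := (Int.odd_mul.1 this).1
    exact ⟨k - (8 * r ^ 2 + 4 * r), by linear_combination hk⟩
  have k : IsCoprime c (4 * r + 1) := by
    have := cop.of_mul_right_right
    rw [show (4 * r + 1) ^ 2 - (4 * r + 1) + c = c + (4 * r + 1) * (4 * r) by ring] at this
    exact (IsCoprime.add_mul_left_right_iff.1 this).symm
  obtain ⟨d, hd⟩ : c ∣ r * (2 * r + 1) := (IsCoprime.pow_right (n := 3) (Int.isCoprime_two_right.2 o)).dvd_of_dvd_mul_left
    (k.dvd_of_dvd_mul_left ⟨x - (4 * r + 1), by linear_combination -e1⟩)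
  refine ⟨c, d, by linear_combination -8 * hd, mul_left_cancel₀ (show c ≠ 0 by rintro rfl; simp at o) ?_, rfl⟩
  linear_combination e1 + 8 * (4 * r + 1) * hd

variable {G : Type*} [Group G] [Fintype G] {t u g w v : G}

theorem z2 (h : HS t u g w v) (cj : ∀ s : G, s * s = 1 → s ≠ 1 → IsConj t s) {q : ℕ} (h4 : q % 4 = 1)
    (ov : 2 * orderOf v = q + 1) (cH : Nat.card C1[t] = 2 * q * (q ^ 2 - 1))
    (cU : ∀ x, Commute x t → Commute x u → Commute x v)
    (H1 : ∀ k, 2 ^ k ∣ q - 1 → (4 * 2 ^ k : ℤ) ∣ C1[t].index - 1 + q * (q - 1)) {η η' : G → ℂ} {x : ℤ}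
    (s1 : IsSIrr G η) (s2 : IsSIrr G η') (v1 : η' 1 = x) (v2 : η' t = q) (v3 : η 1 = -(x + 1)) (v4 : η t = -(q + 1))
    (E : (C1[t].index : ℤ) * (x - q) ^ 2 = q * (q + 1) * (q - 1) ^ 2 * (x * (x + 1)))
    (z : ∀ y, 1 + (η y + η' y) ≠ 0 → (orderOf y).Coprime (orderOf v)) : ¬ q.Coprime C1[t].index := fun cop => by
  have q5' : 5 ≤ q := by
    by_contra l
    obtain rfl : q = 1 := by omega
    exact (card_pos' _).ne' cH
  have v0 : v ≠ 1 := by rintro rfl; rw [orderOf_one] at ov; omega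
  obtain ⟨c, d, e1, e2, e3⟩ := ar3 (by omega) (by omega) (Nat.isCoprime_iff_coprime.2 cop) (H1 2 (by omega)) E
  have cG := C1[t].index_mul_card
  rw [cH] at cG
  by_cases q1 : q = 5
  · subst q1
    have H := H1 2 (by norm_num)
    have m : ¬ (5 : ℤ) ∣ C1[t].index := fun e => by
      simpa using Nat.eq_one_of_dvd_coprimes cop dvd_rfl (Int.natCast_dvd_natCast.1 e)
    rw [e3] at H m
    have hc : c ∣ 3 := ⟨d, by push_cast at e1; linarith⟩
    have := abs_le.1 (Int.le_of_dvd (by norm_num) ((abs_dvd _ _).2 hc))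
    obtain rfl : c = 3 := by obtain ⟨l1, l2⟩ := this; interval_cases c <;> omega
    refine q5 h.toQ3 cj (by omega) cH fun y c1 c2 => ?_
    obtain ⟨e, he, b, hb, rfl⟩ := h.cT (mem_zpowers v) v0 c1 (cU y c1 c2)
    rw [(h.vU hb he).symm.mul_pow, show 6 = 2 * 3 from rfl, pow_mul, sq, h.sqU he, one_pow, one_mul]
    exact orderOf_dvd_iff_pow_eq_one.1 ((orderOf_dvd_of_mem_zpowers hb).trans (by
      rw [show orderOf v = 3 by omega]; norm_num))
  by_cases q2 : q = 9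
  · subst q2
    have H := H1 3 (by norm_num)
    have m : ¬ (3 : ℤ) ∣ C1[t].index := fun e => by
      simpa using Nat.eq_one_of_dvd_coprimes cop (show 3 ∣ 9 by norm_num) (Int.natCast_dvd_natCast.1 e)
    rw [e3] at H m
    have hc : c ∣ 10 := ⟨d, by push_cast at e1; linarith⟩
    obtain ⟨l1, l2⟩ := abs_le.1 (Int.le_of_dvd (by norm_num) ((abs_dvd _ _).2 hc))
    interval_cases c <;> omega
  obtain ⟨N, hN, cM⟩ : ∃ N : ℕ, (N = 12 ∨ N = 60) ∧ Nat.card C1[v] = N * orderOf v :=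
    (h.card_M (mem_zpowers v) v0).elim (fun e => ⟨12, .inl rfl, e⟩) fun e => ⟨60, .inr rfl, e⟩
  by_cases hm : orderOf v * orderOf v ∣ Nat.card C1[v]
  · rw [cM] at hm
    replace hm := Nat.dvd_of_mul_dvd_mul_right (orderOf_pos v) hm
    have l := Nat.le_of_dvd (by omega) hm
    have : orderOf v = 15 ∧ N = 60 := by
      have : 7 ≤ orderOf v := by omega
      have : orderOf v % 2 = 1 := by omega
      generalize orderOf v = m at *
      rcases hN with rfl | rfl <;> interval_cases m <;> omega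
    obtain rfl : q = 29 := by omega
    exact q29 h cj this.1 (by rw [cM, this.1, this.2]) (by rw [cH]; norm_num)
  obtain ⟨b, hb, b1, Θ, θ1, θ2, θ3, θ4, θ5, θ6, j, θ7⟩ := theta h cj v0 hm
  obtain ⟨α, β, sa, sb, e, k⟩ := three_term h.tt θ1 θ2 θ3 θ4 θ5
  have or := θ6 ((fun _ => 1) + (η + η')) (virt_one.add (s1.virt.add s2.virt)).isClassFunction fun y ny m => b1
    (orderOf_eq_one_iff.1 (Nat.eq_one_of_dvd_coprimes (z y ny) (orderOf_dvd_of_mem_zpowers m)
      (orderOf_dvd_of_mem_zpowers hb)))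
  have o : ∀ {ζ : G → ℂ} {a : ℤ}, IsSIrr G ζ → ζ t = a → a ≠ 1 → a ≠ -1 → ⟪fun _ => 1, ζ⟫ = 0 := fun s e n1 n2 => by
    rcases isIrrCharacter_one.isSIrr.ci_cases s with a | a | a
    · exact absurd (by exact_mod_cast e.symm.trans (congrFun a.1 t).symm) n1
    · exact absurd (by exact_mod_cast e.symm.trans (neg_eq_iff_eq_neg.1 (congrFun a.1 t).symm)) n2
    · exact a.2.2
  obtain ⟨γ, hγ, ζ, hζ, e'⟩ : ∃ γ, (γ = α ∨ γ = β) ∧ ∃ ζ, (ζ = η ∨ ζ = η') ∧ γ = -ζ := by
    by_contra c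
    push Not at c
    have p : ∀ {γ ζ}, IsSIrr G γ → IsSIrr G ζ → γ ≠ -ζ → 0 ≤ (⟪γ, ζ⟫).re := fun s s' n => by
      rcases s.ci_cases s' with a | a | a
      exacts [by simp [a.2], absurd a.1 n, by simp [a.2.2]]
    rw [ci_add_right, θ3, e, ci_add_right, ci_add_left, ci_add_left, ci_add_left, ci_add_left,
      o (a := -(q + 1)) s1 (by exact_mod_cast v4) (by omega) (by omega),
      o (a := q) s2 (by exact_mod_cast v2) (by omega) (by omega)] at or
    have := congrArg Complex.re or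
    simp only [zero_add, Complex.add_re, Complex.one_re, Complex.zero_re] at this
    linarith [p sa s1 (c _ (.inl rfl) _ (.inl rfl)), p sa s2 (c _ (.inl rfl) _ (.inr rfl)),
      p sb s1 (c _ (.inr rfl) _ (.inl rfl)), p sb s2 (c _ (.inr rfl) _ (.inr rfl))]
  obtain ⟨y, c', x1, x2, x3, x4, x5⟩ := k γ hγ
  rw [cM, ← cG] at θ7
  have n0 : (C1[t].index : ℤ) ≠ 0 := Nat.cast_ne_zero.2 index_ne_zero_of_finite
  have m0 : (orderOf v : ℤ) ≠ 0 := Nat.cast_ne_zero.2 (orderOf_pos v).ne'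
  have qm : (q : ℤ) = 2 * orderOf v - 1 := by omega
  have q13 : (13 : ℤ) ≤ q := by omega
  have hN' : (N : ℤ) = 12 ∨ (N : ℤ) = 60 := by omega
  have hx : 9 * q ≤ x ∨ x ≤ -7 * q := by
    have : d ≠ 0 := by rintro rfl; nlinarith
    rcases show 1 ≤ d ∨ d ≤ -1 by omega with l | l
    exacts [.inl (by nlinarith), .inr (by nlinarith)]
  rw [Nat.cast_mul, Nat.cast_mul, Nat.cast_mul, Nat.cast_mul, Nat.cast_sub (Nat.one_le_pow _ _ (by omega))] at θ7
  generalize C1[t].index = n at *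
  generalize orderOf v = m at *
  have Z : y * (y + 1) * (n * (2 * q * (q ^ 2 - 1)) * (m * j) ^ 2) = n ^ 2 * (y - c') ^ 2 * (N * m) := by
    push_cast at θ7
    exact_mod_cast (by rw [← θ7, ← x5]; ring : (y * (y + 1) * (n * (2 * q * (q ^ 2 - 1)) * (m * j) ^ 2) : ℂ) =
      n ^ 2 * (y - c') ^ 2 * (N * m))
  have W : (y - c') ^ 2 = (x - q) ^ 2 → y * (y + 1) * ((q + 1) * j ^ 2) = N * (q - 1) * (x * (x + 1)) := fun r =>
    mul_left_cancel₀ (show (n * m * (q * (q + 1) * (q - 1)) : ℤ) ≠ 0 from mul_ne_zero (mul_ne_zero n0 m0)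
      (mul_pos (by positivity) (by omega)).ne') (by
      rw [r] at Z
      linear_combination Z + (n * N * m) * E + (n * m * q * (q + 1) * (q - 1) * y * (y + 1) * j ^ 2) * qm)
  rcases hζ with rfl | rfl <;> rw [e', Pi.neg_apply] at x1 x2
  · obtain rfl : y = x + 1 := by exact_mod_cast (by rw [← x1, v3]; ring : (y : ℂ) = x + 1)
    obtain rfl : c' = q + 1 := by exact_mod_cast (by rw [← x2, v4]; ring : (c' : ℂ) = q + 1)
    exact ar2 (b := -(x + 1)) q13 (by omega) (mul_left_cancel₀ x3 (by linear_combination -W (by ring)))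
      j.cast_nonneg hN'
  · obtain rfl : y = -x := by exact_mod_cast (by rw [← x1, v1] : (y : ℂ) = -x)
    obtain rfl : c' = -q := by exact_mod_cast (by rw [← x2, v2] : (c' : ℂ) = -q)
    exact ar2 (b := x) q13 (by omega) (mul_left_cancel₀ x3 (by linear_combination -W (by ring))) j.cast_nonneg hN'

end Cfsg.Agent.B85D
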